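import Mathlib
import Cfsg.Agent.Lib.Helper6.X32.Defs
import Cfsg.Agent.Lib.Helper8.FXSP.NFM

/-!
# X32 (S6002), package [CJM]

Elements with square `-1` of `Sp_4(F)`, `F` finite of odd characteristic, are conjugate (this is
helper8's `pkgNFM` from the FXSP project).
-/

set_option autoImplicit false

namespace Cfsg.Agent.Lib.Helper47.X32

open Cfsg.Agent.Lib.Helper6.X32

universe u

/-- **[CJM]** -/
theorem pkgCJM : PkgCJM.{u} := by
  intro F _ _ h2 x hx y hy hxx hyy
  have cv : ∀ z : GL4 F, z * z = -1 → (z : M4 F) * (z : M4 F) = -1 := by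
    intro z hz
    rw [← Units.val_mul, hz, Units.val_neg, Units.val_one]
  exact Cfsg.Agent.Lib.Helper8.FXSP.pkgNFM h2 x hx y hy (cv x hxx) (cv y hyy)

end Cfsg.Agent.Lib.Helper47.X32
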