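import Mathlib
import Cfsg.Agent.Lib.Helper6.X32.Defs
import Cfsg.Agent.Lib.Helper8.FXSP.NFP

/-!
# X32 (S6002), package [CJP]

Non-central involutions of `Sp_4(F)` are conjugate (via helper8's normal form `nfp_one` from the
FXSP project, which needs no finiteness).
-/

set_option autoImplicit false

namespace Cfsg.Agent.Lib.Helper47.X32

open Cfsg.Agent.Lib.Helper6.X32

universe u

/-- **[CJP]** -/
theorem pkgCJP : PkgCJP.{u} := by
  intro F _ h2 x hx y hy hxx hyy hx1 hxm hy1 hym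
  have cv : ∀ z : GL4 F, z * z = 1 → (z : M4 F) * (z : M4 F) = 1 := by
    intro z hz
    rw [← Units.val_mul, hz, Units.val_one]
  have c1 : ∀ z : GL4 F, z ≠ 1 → (z : M4 F) ≠ 1 := by
    intro z hz h
    exact hz (Units.ext (by rw [h, Units.val_one]))
  have cm : ∀ z : GL4 F, z ≠ -1 → (z : M4 F) ≠ -1 := by
    intro z hz h
    exact hz (Units.ext (by rw [h, Units.val_neg, Units.val_one]))
  obtain ⟨g₁, hg₁, e₁⟩ :=
    Cfsg.Agent.Lib.Helper8.FXSP.nfp_one h2 x hx (cv x hxx) (c1 x hx1) (cm x hxm)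
  obtain ⟨g₂, hg₂, e₂⟩ :=
    Cfsg.Agent.Lib.Helper8.FXSP.nfp_one h2 y hy (cv y hyy) (c1 y hy1) (cm y hym)
  exact Cfsg.Agent.Lib.Helper8.FXSP.conj_of_normal_form 2 _ x y g₁ g₂ hg₁ hg₂ e₁ e₂

end Cfsg.Agent.Lib.Helper47.X32
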