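import Mathlib
import Cfsg.Agent.Lib.Helper6.X32.Defs
import Cfsg.Agent.Lib.Helper8.FXSP.NFBase

/-!
# X32 (S6002), package [SPBASIS]

A family with the Gram matrix of the standard basis is the image of the standard basis under an
element of `Sp_4` (this is helper8's `exists_spGL_of_gram` from the FXSP project).
-/

set_option autoImplicit false

namespace Cfsg.Agent.Lib.Helper47.X32

open Cfsg.Agent.Lib.Helper6.X32

universe u

/-- **[SPBASIS]** -/
theorem pkgSpBasis : PkgSpBasis.{u} := by
  intro F _ B hB
  exact Cfsg.Agent.Lib.Helper8.FXSP.exists_spGL_of_gram 2 B hB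

end Cfsg.Agent.Lib.Helper47.X32
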